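import Cfsg.Agent.Mult.Slices
import Cfsg.Agent.J2C.Act

set_option autoImplicit false
set_option Elab.async false
set_option maxRecDepth 100000
set_option linter.all false

namespace Cfsg.Agent.J2C
open Cfsg.Agent.CGT

open Cfsg.Agent.Mult

noncomputable def u2_D : PC := ⟨2, 7, 2, 20,
  [[0, 4, 0x50, 0x1040, 0x1500, 0x400, 0x1000], [0, 0, 0x110, 0x440, 0x1100, 0x400, 0x1000], [0, 0, 0x100, 0x440, 0x100, 0x1400, 0x1000], [0, 0, 0, 0x1000, 0x1100, 0x400, 0x1000], [0, 0, 0, 0, 0x1000, 0x400, 0x1000], [0, 0, 0, 0, 0, 0, 0x1000], [0, 0, 0, 0, 0, 0, 0]],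
  [0xfc, 0x3f, 0x33, 3, 0, 0, 0],
  [(7, 1, 4), (7, 4, 5), (7, 0x40, 0x500), (7, 0x100, 0x540), (7, 0x400, 0x400), (7, 0x1000, 0x1000), (8, 0x40, 0x114), (8, 0x100, 0x1100), (8, 0x1000, 0x1000)], 19, 0x40000050302000000000100000000060000⟩
noncomputable def u2_ds : List (List ℕ) := [[8, 10, 4, 0, 10, 8, 6, 0, 10], [6, 10, 8, 10, 2, 0, 10, 8, 0], [6, 2, 10, 6, 0, 8, 2, 6], [8, 6, 4, 10, 6, 0, 2, 10, 0], [0, 8, 6, 4, 10, 6, 4, 10, 0, 4], [6, 4, 10, 0, 6, 10, 4, 6], [8, 4, 10, 0, 2, 6, 4, 8, 10], [2, 0, 4, 6, 2, 10, 2, 6, 10], [6, 4, 10, 0, 6, 2, 8, 6, 10, 4]]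
noncomputable def u2_c : Mult.Cert := ⟨21, 17, [[], [], [], [2], [9], [10], [19]],
  [([1], 1, 0x30000000000000)],
  [[0x81, 1, 0, 0x11d5438, 0x22c3c00, 0xc4000, 0x640000], [0, 0x181, 0, 0, 0x1089460, 0x2383000, 0x4c0000], [0, 0, 0x150c1df, 0x2144a38, 0x4000000, 0, 0x800000], [0, 0, 0, 0x1585438, 0x26c3400, 0x2642000, 0x2000000], [0, 0, 0, 0, 0x14c1460, 0xc60000, 0x1000000], [0, 0, 0, 0, 0, 0x2283000, 0x400000], [0, 0, 0, 0, 0, 0, 0x440000]]⟩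

end Cfsg.Agent.J2C
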