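import Cfsg.Agent.Mult.Slices
import Cfsg.Agent.J2C.Mul2D

set_option autoImplicit false
set_option Elab.async false
set_option maxRecDepth 100000
set_option linter.all false

namespace Cfsg.Agent.J2C
open Cfsg.Agent.CGT

open Cfsg.Agent.Mult

set_option Elab.async false
theorem u2_all : allB u2_D u2_c [.assoc 4 1 1, .assoc 0x10 0x10 0x10, .assoc 0x40 0x40 0x40, .assoc 0x100 0x100 0x100, .assoc 0x100 0x100 0x10, .assoc 0x400 0x40 0x40, .assoc 0x40 1 1, .assoc 0x40 4 4, .assoc 0x100 4 4, .assoc 0x400 0x400 0x10, .assoc 0x400 0x10 0x10, .assoc 0x10 1 1, .assoc 0x10 4 4, .assoc 0x40 4 1, .assoc 0x400 0x10 1, .assoc 0x40 0x40 4, .assoc 0x10 4 1, .assoc 0x40 0x10 0x10, .assoc 0x10 0x10 1, .fus 7 [0, 0] [], .fus 7 [1, 1] [], .fus 7 [2, 2] [5], .fus 7 [3, 3] [5], .fus 7 [3, 0] [0, 3, 4, 5], .fus 7 [2, 1] [1, 2, 4], .fus 8 [7, 7] [8], .fus 8 [6, 6] [8]] 9 m_ts u2_ds [1, 268, 267, 234, 9, 0] [(46,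 [0x10]), (1, [0x1000, 0x100, 0x40]), (16, [0x44]), (21, [0x105]), (0, [0x1400])] = true := by decide +kernel

end Cfsg.Agent.J2C
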