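import Cfsg.Agent.Mult.Slices
import Cfsg.Agent.J2C.Act

set_option autoImplicit false
set_option Elab.async false
set_option maxRecDepth 100000
set_option linter.all false

namespace Cfsg.Agent.J2C
open Cfsg.Agent.CGT

open Cfsg.Agent.Mult

noncomputable def u5_D : PC := ⟨5, 2, 3, 21,
  [[0, 8], [0, 0]],
  [0, 0],
  [(2, 1, 0x10), (2, 8, 3), (3, 1, 0x11)], 9, 0x1000100000001⟩
noncomputable def u5_ds : List (List ℕ) := [[8, 6, 2, 6, 2, 10, 6, 8], [0, 8, 4, 10, 6, 2, 8, 4, 6], [0, 6, 10, 8, 6, 2, 6, 8, 10, 4, 10], [8, 4, 10, 0, 10, 4, 8]]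
noncomputable def u5_c : Mult.Cert := ⟨18, 18, [[], []],
  [],
  [[0x15, 0x32], [0, 3]]⟩

end Cfsg.Agent.J2C
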